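import Cfsg.Agent.Lib.Helper78.SF3.Defs
import Cfsg.Agent.Lib.Helper99.SubfieldGrp

/- helper78 farm SF3 (S5966), piece B (helper3). -/
set_option autoImplicit false
open scoped MatrixGroups

namespace Cfsg.Agent.Lib.Helper78.SF3

/-- [B] bridge to the statement's wording -/
theorem bridge {F : Type*} [Field F] {n : ℕ} (F₀ : Subfield F)
    (x : Matrix.SpecialLinearGroup (Fin n) F) :
    (∃ P : Matrix.SpecialLinearGroup (Fin n) F, P⁻¹ * x * P ∈
      ((Cfsg.Geo.subfieldSubgroup F₀ 1).comap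
        (Matrix.SpecialLinearGroup.toGL : Matrix.SpecialLinearGroup (Fin n) F →* GL (Fin n) F))) ↔
    ConjH F₀ (x : Matrix (Fin n) (Fin n) F) := by
  have hmem : ∀ P : Matrix.SpecialLinearGroup (Fin n) F, (P⁻¹ * x * P ∈
      ((Cfsg.Geo.subfieldSubgroup F₀ 1).comap
        (Matrix.SpecialLinearGroup.toGL : Matrix.SpecialLinearGroup (Fin n) F →* GL (Fin n) F))) ↔
      ∃ c : F, c ≠ 0 ∧ ∀ i j, (c • ((P⁻¹ * x * P : Matrix.SpecialLinearGroup (Fin n) F) :
        Matrix (Fin n) (Fin n) F)) i j ∈ F₀ := by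
    intro P
    rw [Subgroup.mem_comap, Cfsg.Agent.Lib.Helper99.mem_subfieldSubgroup_iff]
    simp only [inv_one, one_mul, mul_one]
    rfl
  have hPP : ∀ P : Matrix.SpecialLinearGroup (Fin n) F,
      (P : Matrix (Fin n) (Fin n) F) * ((P⁻¹ : Matrix.SpecialLinearGroup (Fin n) F) :
        Matrix (Fin n) (Fin n) F) = 1 := by
    intro P
    rw [← Matrix.SpecialLinearGroup.coe_mul, mul_inv_cancel, Matrix.SpecialLinearGroup.coe_one]
  have hPP' : ∀ P : Matrix.SpecialLinearGroup (Fin n) F,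
      ((P⁻¹ : Matrix.SpecialLinearGroup (Fin n) F) : Matrix (Fin n) (Fin n) F) *
        (P : Matrix (Fin n) (Fin n) F) = 1 := by
    intro P
    rw [← Matrix.SpecialLinearGroup.coe_mul, inv_mul_cancel, Matrix.SpecialLinearGroup.coe_one]
  constructor
  · rintro ⟨P, hP⟩
    obtain ⟨c, hc, hY⟩ := (hmem P).1 hP
    refine ⟨P, c • ((P⁻¹ * x * P : Matrix.SpecialLinearGroup (Fin n) F) :
        Matrix (Fin n) (Fin n) F), c, P.2, hc, hY, ?_⟩
    rw [Matrix.mul_smul, Matrix.SpecialLinearGroup.coe_mul, Matrix.SpecialLinearGroup.coe_mul,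
      ← mul_assoc, ← mul_assoc, hPP, one_mul]
  · rintro ⟨P, Y, c, hdet, hc, hY, h⟩
    let Q : Matrix.SpecialLinearGroup (Fin n) F := ⟨P, hdet⟩
    have hQ : (Q : Matrix (Fin n) (Fin n) F) = P := rfl
    refine ⟨Q, (hmem Q).2 ⟨c, hc, ?_⟩⟩
    have : c • ((Q⁻¹ * x * Q : Matrix.SpecialLinearGroup (Fin n) F) :
        Matrix (Fin n) (Fin n) F) = Y := by
      rw [Matrix.SpecialLinearGroup.coe_mul, Matrix.SpecialLinearGroup.coe_mul, mul_assoc,
        ← Matrix.mul_smul, hQ, h, ← mul_assoc, ← hQ, hPP', one_mul]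
    rw [this]
    exact hY

end Cfsg.Agent.Lib.Helper78.SF3
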