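import Cfsg.Agent.Lib.Helper78.SF3.Defs

set_option autoImplicit false

namespace Cfsg.Agent.Lib.Helper78.SF3

/-- [BB] `ConjH` from a basis of determinant 1 in which `c X` is rational -/
theorem conjH_of_basis {F : Type*} [Field F] {n : ℕ} (F₀ : Subfield F)
    (X : Matrix (Fin n) (Fin n) F) (b : Module.Basis (Fin n) F (Fin n → F)) (c : F) (hc : c ≠ 0)
    (hdet : (Matrix.of fun i j => b j i).det = 1)
    (hrat : ∀ i j, c * b.repr (X.mulVec (b j)) i ∈ F₀) : ConjH F₀ X := by
  refine ⟨Matrix.of fun i j => b j i, Matrix.of fun i j => c * b.repr (X.mulVec (b j)) i, c, hdet,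
    hc, hrat, ?_⟩
  ext i j
  rw [Matrix.smul_apply, Matrix.mul_apply, Matrix.mul_apply, smul_eq_mul]
  have h1 : ∑ k, X i k * (Matrix.of fun i j => b j i) k j = (X.mulVec (b j)) i := by
    simp [Matrix.mulVec, dotProduct]
  have h2 := congrFun (b.sum_repr (X.mulVec (b j))) i
  rw [Finset.sum_apply] at h2
  rw [h1, ← h2, Finset.mul_sum]
  refine Finset.sum_congr rfl fun k _ => ?_
  simp only [Matrix.of_apply, Pi.smul_apply, smul_eq_mul]
  ring

end Cfsg.Agent.Lib.Helper78.SF3
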