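import Cfsg.Agent.Lib.Helper78.SF3.Defs

/- helper78 farm SF3 (S5966), piece BLK (helper3). -/
set_option autoImplicit false

namespace Cfsg.Agent.Lib.Helper78.SF3

/-- [BLK] the determinant of `[u | M u]`, `u` a selection of coordinate vectors -/
theorem det_block {F : Type*} [Field F] {ι : Type*} [Fintype ι] [DecidableEq ι]
    (D : Matrix ι ι F) (P M : Matrix (ι ⊕ ι) (ι ⊕ ι) F) (hP : P.det = 1)
    (h : Matrix.fromBlocks 0 0 D 0 * P = P * M) (f : ι → ι ⊕ ι) :
    (Matrix.fromCols ((1 : Matrix (ι ⊕ ι) (ι ⊕ ι) F).submatrix id f) (M.submatrix id f)).det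
      = D.det * ((P.submatrix Sum.inl f).det) ^ 2 := by
  classical
  set H := Matrix.fromCols ((1 : Matrix (ι ⊕ ι) (ι ⊕ ι) F).submatrix id f) (M.submatrix id f)
    with hH
  have key : P * H = Matrix.fromBlocks (P.submatrix Sum.inl f) 0 (P.submatrix Sum.inr f)
      (D * P.submatrix Sum.inl f) := by
    ext i j
    rcases j with j | j
    · have e1 : (P * H) i (Sum.inl j) = P i (f j) := by
        calc (P * H) i (Sum.inl j)
            = ∑ b, P i b * (1 : Matrix (ι ⊕ ι) (ι ⊕ ι) F) b (f j) := by
              rw [Matrix.mul_apply]; rfl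
          _ = (P * (1 : Matrix (ι ⊕ ι) (ι ⊕ ι) F)) i (f j) := by rw [Matrix.mul_apply]
          _ = P i (f j) := by rw [mul_one]
      rw [e1]
      rcases i with i | i <;> simp
    · have e1 : (P * H) i (Sum.inr j) = (P * M) i (f j) := by
        rw [Matrix.mul_apply, Matrix.mul_apply]
        rfl
      rw [e1, ← h]
      rcases i with i | i
      · simp [Matrix.mul_apply, Fintype.sum_sum_type]
      · simp [Matrix.mul_apply, Fintype.sum_sum_type]
  have hdet := congrArg Matrix.det key
  rw [Matrix.det_mul, hP, one_mul, Matrix.det_fromBlocks_zero₁₂, Matrix.det_mul] at hdet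
  rw [hdet]
  ring

end Cfsg.Agent.Lib.Helper78.SF3
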