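import Cfsg.Agent.Lib.Helper78.SF3.BB
import Cfsg.Agent.Lib.Helper67.Elus.JDefs

set_option autoImplicit false

namespace Cfsg.Agent.Lib.Helper78.SF3

open Cfsg.Agent.Lib.Helper67.Elus

/-- [CH] `ConjH` from a Jordan basis of `w⁻¹ X - 1` and the scalings -/
theorem conjH_of_chain {F : Type*} [Field F] {n : ℕ} (F₀ : Subfield F)
    (X : Matrix (Fin n) (Fin n) F) (w : F) (hw : w ≠ 0) {ι : Type} [Fintype ι] (d : ι → ℕ)
    (b : Module.Basis (Σ k : ι, Fin (d k)) F (Fin n → F))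
    (hb : IsChain (w⁻¹ • Matrix.toLin' X - 1) d b)
    (hscal : ∀ a : F, a ≠ 0 → ∃ t : (Σ k : ι, Fin (d k)) → F, (∀ s, t s ≠ 0) ∧ (∏ s, t s = a) ∧
      ∀ (k : ι) (i j : Fin (d k)), t ⟨k, i⟩ * (t ⟨k, j⟩)⁻¹ ∈ F₀) :
    ConjH F₀ X := by
  classical
  have hcard : Fintype.card (Σ k : ι, Fin (d k)) = Fintype.card (Fin n) := by
    rw [← Module.finrank_eq_card_basis b, Module.finrank_fin_fun, Fintype.card_fin]
  let e : (Σ k : ι, Fin (d k)) ≃ Fin n := Fintype.equivOfCardEq hcard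
  let P0 : Matrix (Fin n) (Fin n) F := Matrix.of fun i j => b (e.symm j) i
  have hP0 : P0.det ≠ 0 := by
    have h1 : P0 = (Pi.basisFun F (Fin n)).toMatrix (b.reindex e) := by
      ext i j
      simp [P0, Module.Basis.toMatrix_apply]
    rw [h1]
    have := (Pi.basisFun F (Fin n)).invertibleToMatrix (b.reindex e)
    exact (Matrix.isUnit_det_of_invertible _).ne_zero
  obtain ⟨t, ht0, htprod, htrat⟩ := hscal (P0.det)⁻¹ (inv_ne_zero hP0)
  let b' : Module.Basis (Fin n) F (Fin n → F) :=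
    (b.unitsSMul fun s => Units.mk0 (t s) (ht0 s)).reindex e
  have hb' : ∀ s, b' (e s) = t s • b s := by
    intro s
    simp only [b', Module.Basis.reindex_apply, Equiv.symm_apply_apply, Module.Basis.unitsSMul_apply]
    rfl
  refine conjH_of_basis F₀ X b' w⁻¹ (inv_ne_zero hw) ?_ ?_
  · have h1 : (Matrix.of fun i j => b' j i) = P0 * Matrix.diagonal (fun j => t (e.symm j)) := by
      ext i j
      obtain ⟨s, rfl⟩ := e.surjective j
      rw [Matrix.mul_diagonal, Matrix.of_apply, hb']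
      simp [P0, mul_comm]
    rw [h1, Matrix.det_mul, Matrix.det_diagonal, Equiv.prod_comp e.symm t, htprod,
      mul_inv_cancel₀ hP0]
  · intro i j
    obtain ⟨⟨k, a⟩, rfl⟩ := e.surjective j
    have h1 : w⁻¹ • X.mulVec (b' (e ⟨k, a⟩)) = b' (e ⟨k, a⟩) +
        (if h : (a : ℕ) + 1 < d k then
          (t ⟨k, a⟩ * (t ⟨k, ⟨(a : ℕ) + 1, h⟩⟩)⁻¹) • b' (e ⟨k, ⟨(a : ℕ) + 1, h⟩⟩) else 0) := by
      have h3 := hb k a
      rw [LinearMap.sub_apply, LinearMap.smul_apply, Matrix.toLin'_apply, Module.End.one_apply,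
        sub_eq_iff_eq_add] at h3
      rw [hb', Matrix.mulVec_smul, smul_comm, h3, smul_add, add_comm]
      congr 1
      split_ifs with h
      · rw [hb', smul_smul, mul_assoc, inv_mul_cancel₀ (ht0 _), mul_one]
      · rw [smul_zero]
    have h2 : w⁻¹ * b'.repr (X.mulVec (b' (e ⟨k, a⟩))) i
        = b'.repr (w⁻¹ • X.mulVec (b' (e ⟨k, a⟩))) i := by
      rw [map_smul, Finsupp.smul_apply, smul_eq_mul]
    rw [h2, h1, map_add, Finsupp.add_apply, Module.Basis.repr_self]
    refine F₀.add_mem ?_ ?_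
    · rw [Finsupp.single_apply]
      split_ifs
      exacts [F₀.one_mem, F₀.zero_mem]
    · split_ifs with h
      · rw [map_smul, Module.Basis.repr_self, Finsupp.smul_apply, Finsupp.single_apply, smul_eq_mul]
        refine F₀.mul_mem (htrat _ _ _) ?_
        split_ifs
        exacts [F₀.one_mem, F₀.zero_mem]
      · rw [map_zero, Finsupp.zero_apply]
        exact F₀.zero_mem

end Cfsg.Agent.Lib.Helper78.SF3
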