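import Cfsg.Agent.Lib.Helper78.SF3.Defs

set_option autoImplicit false

namespace Cfsg.Agent.Lib.Helper78.SF3

/-- [DETRAT] the determinant of a rational matrix is rational -/
theorem det_mem {F : Type*} [Field F] {κ : Type*} [Fintype κ] [DecidableEq κ] (F₀ : Subfield F)
    (H : Matrix κ κ F) (hH : ∀ i j, H i j ∈ F₀) : H.det ∈ F₀ := by
  have h1 : H = (Matrix.of fun i j => (⟨H i j, hH i j⟩ : F₀)).map F₀.subtype := by
    ext i j
    rfl
  rw [h1, ← RingHom.mapMatrix_apply, ← RingHom.map_det]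
  exact SetLike.coe_mem _

end Cfsg.Agent.Lib.Helper78.SF3
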