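/-
helper78: row S5966 (elements of order 3 of PSL_n(q), q a power of 3, and subfield subgroups).  Vocabulary.
-/
import Mathlib

set_option autoImplicit false

namespace Cfsg.Agent.Lib.Helper78.SF3

/-- `X` is conjugate, by a matrix of determinant 1, to a scalar multiple of a matrix with entries in `F₀` -/
def ConjH {F : Type*} [Field F] {κ : Type*} [Fintype κ] [DecidableEq κ] (F₀ : Subfield F)
    (X : Matrix κ κ F) : Prop :=
  ∃ (P Y : Matrix κ κ F) (c : F), P.det = 1 ∧ c ≠ 0 ∧ (∀ i j, Y i j ∈ F₀) ∧ c • (X * P) = P * Y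

end Cfsg.Agent.Lib.Helper78.SF3
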