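import Cfsg.Agent.Lib.Helper78.SF3.Defs

/- helper78 farm SF3 (S5966), piece MINOR (proved by helper92).
Multilinear expansion of `det (T * S)` along the columns.
-/
set_option autoImplicit false

namespace Cfsg.Agent.Lib.Helper78.SF3

theorem MINOR_expand {F : Type*} [Field F] {ι κ : Type*} [Fintype ι] [DecidableEq ι] [Fintype κ]
    [DecidableEq κ] (T : Matrix ι κ F) (S : Matrix κ ι F) :
    (T * S).det = ∑ f : ι → κ, (∏ j, S (f j) j) * (T.submatrix id f).det := by
  classical
  have h1 : (T * S).det
      = (Matrix.detRowAlternating (R := F) (n := ι)).toMultilinearMap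
          (fun j => ∑ k, S k j • (fun i => T i k)) := by
    rw [← Matrix.det_transpose]
    change Matrix.det _ = Matrix.det _
    congr 1
    funext j i
    simp [Matrix.transpose_apply, Matrix.mul_apply, mul_comm]
  rw [h1, MultilinearMap.map_sum]
  refine Finset.sum_congr rfl fun f _ => ?_
  rw [MultilinearMap.map_smul_univ, smul_eq_mul]
  congr 1
  rw [← Matrix.det_transpose]
  rfl

/-- [MINOR] a matrix with a right inverse has a non-zero maximal minor -/
theorem exists_minor {F : Type*} [Field F] {ι κ : Type*} [Fintype ι] [DecidableEq ι] [Fintype κ]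
    [DecidableEq κ] (T : Matrix ι κ F) (S : Matrix κ ι F) (h : T * S = 1) :
    ∃ f : ι → κ, (T.submatrix id f).det ≠ 0 := by
  by_contra hcon
  push Not at hcon
  have h1 := MINOR_expand T S
  rw [h, Matrix.det_one] at h1
  have h2 : ∑ f : ι → κ, (∏ j, S (f j) j) * (T.submatrix id f).det = 0 :=
    Finset.sum_eq_zero fun f _ => by rw [hcon f, mul_zero]
  rw [h2] at h1
  exact one_ne_zero h1

end Cfsg.Agent.Lib.Helper78.SF3
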