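import Cfsg.Agent.Lib.Helper78.SF3.Defs

/- helper78 farm SF3 (S5966), piece W2 (helper3). -/
set_option autoImplicit false

namespace Cfsg.Agent.Lib.Helper78.SF3

/-- [W2] the scalar is rational -/
theorem c_mem {F : Type*} [Field F] {κ : Type*} [Fintype κ] [DecidableEq κ] [Nonempty κ]
    (F₀ : Subfield F) (h2 : (2 : F) ≠ 0) (X P Y : Matrix κ κ F) (c : F)
    (hX : (X - 1) * (X - 1) = 0) (hP : P.det = 1) (hY : ∀ i j, Y i j ∈ F₀)
    (h : c • (X * P) = P * Y) : c ∈ F₀ := by
  classical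
  have hPu : IsUnit P.det := by rw [hP]; exact isUnit_one
  have e1 : P * (Y - c • (1 : Matrix κ κ F)) = c • ((X - 1) * P) := by
    rw [mul_sub, ← h, sub_mul, one_mul, smul_sub, Matrix.mul_smul, mul_one]
  have e2 : P * ((Y - c • (1 : Matrix κ κ F)) * (Y - c • (1 : Matrix κ κ F))) = 0 := by
    rw [← mul_assoc, e1, Matrix.smul_mul, mul_assoc, e1, Matrix.mul_smul, ← mul_assoc, hX,
      zero_mul, smul_zero, smul_zero]
  have e3 : (Y - c • (1 : Matrix κ κ F)) * (Y - c • (1 : Matrix κ κ F)) = 0 := by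
    have := congrArg (fun Z => P⁻¹ * Z) e2
    simp only [mul_zero] at this
    rwa [← mul_assoc, Matrix.nonsing_inv_mul _ hPu, one_mul] at this
  have e4 : Y * Y = (2 * c) • Y - (c * c) • (1 : Matrix κ κ F) := by
    have e5 : (Y - c • (1 : Matrix κ κ F)) * (Y - c • (1 : Matrix κ κ F))
        = Y * Y - (2 * c) • Y + (c * c) • (1 : Matrix κ κ F) := by
      simp only [sub_mul, mul_sub, Matrix.smul_mul, Matrix.mul_smul, one_mul, mul_one]
      module
    rw [e3] at e5
    have : Y * Y = (Y * Y - (2 * c) • Y + (c * c) • (1 : Matrix κ κ F))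
        + ((2 * c) • Y - (c * c) • (1 : Matrix κ κ F)) := by abel
    rw [this, ← e5, zero_add]
  have hYY : ∀ i j, (Y * Y) i j ∈ F₀ := by
    intro i j
    rw [Matrix.mul_apply]
    exact F₀.sum_mem (fun k _ => F₀.mul_mem (hY i k) (hY k j))
  have h2m : (2 : F) ∈ F₀ := by
    rw [← one_add_one_eq_two]; exact F₀.add_mem F₀.one_mem F₀.one_mem
  by_cases hoff : ∃ i j, i ≠ j ∧ Y i j ≠ 0
  · obtain ⟨i, j, hij, hne⟩ := hoff
    have e6 := congrFun (congrFun e4 i) j
    rw [Matrix.sub_apply, Matrix.smul_apply, Matrix.smul_apply, Matrix.one_apply_ne hij,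
      smul_eq_mul, smul_eq_mul, mul_zero, sub_zero] at e6
    have : c = (Y * Y) i j / (2 * Y i j) := by
      rw [e6]; field_simp
    rw [this]
    exact F₀.div_mem (hYY i j) (F₀.mul_mem h2m (hY i j))
  · push Not at hoff
    obtain ⟨i⟩ := (inferInstance : Nonempty κ)
    have e6 := congrFun (congrFun e4 i) i
    rw [Matrix.sub_apply, Matrix.smul_apply, Matrix.smul_apply, Matrix.one_apply_eq,
      smul_eq_mul, smul_eq_mul, mul_one, Matrix.mul_apply,
      Finset.sum_eq_single i (fun k _ hk => by rw [hoff i k (Ne.symm hk), zero_mul])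
        (fun hi => absurd (Finset.mem_univ i) hi)] at e6
    have : (Y i i - c) * (Y i i - c) = 0 := by linear_combination e6
    have h0 : Y i i - c = 0 := by
      rcases mul_eq_zero.1 this with h | h <;> exact h
    rw [← sub_eq_zero.1 h0]
    exact hY i i

end Cfsg.Agent.Lib.Helper78.SF3
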