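import Cfsg.Agent.Lib.Helper78.SF3.Defs

set_option autoImplicit false

namespace Cfsg.Agent.Lib.Helper78.SF3

/-- [WIT] the witness has determinant 1 and order 3 -/
theorem witness_props {F : Type*} [Field F] [CharP F 3] {ι : Type*} [Fintype ι] [DecidableEq ι]
    (D : Matrix ι ι F) :
    (1 + Matrix.fromBlocks 0 0 D 0 : Matrix (ι ⊕ ι) (ι ⊕ ι) F).det = 1 ∧
    (1 + Matrix.fromBlocks 0 0 D 0 : Matrix (ι ⊕ ι) (ι ⊕ ι) F) ^ 3 = 1 := by
  constructor
  · have h1 : (1 + Matrix.fromBlocks 0 0 D 0 : Matrix (ι ⊕ ι) (ι ⊕ ι) F)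
        = Matrix.fromBlocks 1 0 D 1 := by
      rw [← Matrix.fromBlocks_one, Matrix.fromBlocks_add]
      simp
    rw [h1, Matrix.det_fromBlocks_zero₁₂, Matrix.det_one, one_mul]
  · set E : Matrix (ι ⊕ ι) (ι ⊕ ι) F := Matrix.fromBlocks 0 0 D 0 with hE
    have hEE : E * E = 0 := by
      rw [hE, Matrix.fromBlocks_multiply]
      simp
    have h3 : (3 : F) = 0 := by exact_mod_cast CharP.cast_eq_zero F 3
    have h4 : (1 + E) ^ 3 = 1 + (3 : F) • E + (3 : F) • (E * E) + E * E * E := by
      have : (3 : F) • E = E + E + E := by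
        have : (3 : F) = 1 + 1 + 1 := by norm_num
        rw [this, add_smul, add_smul, one_smul]
      rw [this]
      have : (3 : F) • (E * E) = E * E + E * E + E * E := by
        have : (3 : F) = 1 + 1 + 1 := by norm_num
        rw [this, add_smul, add_smul, one_smul]
      rw [this]
      noncomm_ring
    rw [h4, hEE, h3]
    simp

end Cfsg.Agent.Lib.Helper78.SF3
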