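import Cfsg.Agent.Lib.Helper78.SF3.T
import Cfsg.Agent.Lib.Helper78.SF3.W2
import Cfsg.Agent.Lib.Helper78.SF3.MINOR
import Cfsg.Agent.Lib.Helper78.SF3.DETRAT
import Cfsg.Agent.Lib.Helper78.SF3.BLK
import Cfsg.Agent.Lib.Helper78.SF3.WIT

set_option autoImplicit false

namespace Cfsg.Agent.Lib.Helper78.SF3

/-- the discriminant of a transvection-like element conjugate into the subfield group -/
theorem isSquare_det_of_conjH {F : Type*} [Field F] {ι : Type*} [Fintype ι] [DecidableEq ι]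
    [Nonempty ι] (F₀ : Subfield F) (h2 : (2 : F) ≠ 0) (hsq : ∀ μ ∈ F₀, IsSquare μ)
    (D : Matrix ι ι F)
    (h : ConjH F₀ (1 + Matrix.fromBlocks 0 0 D 0 : Matrix (ι ⊕ ι) (ι ⊕ ι) F)) :
    IsSquare D.det := by
  obtain ⟨P, Y, c, hP, hc, hY, hPY⟩ := h
  set E : Matrix (ι ⊕ ι) (ι ⊕ ι) F := Matrix.fromBlocks 0 0 D 0 with hE
  have hEE : E * E = 0 := by
    rw [hE, Matrix.fromBlocks_multiply]
    simp
  have hcm : c ∈ F₀ := c_mem F₀ h2 (1 + E) P Y c (by simpa using hEE) hP hY hPY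
  set M : Matrix (ι ⊕ ι) (ι ⊕ ι) F := c⁻¹ • Y - 1 with hM
  have hMrat : ∀ i j, M i j ∈ F₀ := by
    intro i j
    rw [hM, Matrix.sub_apply, Matrix.smul_apply, smul_eq_mul]
    refine F₀.sub_mem (F₀.mul_mem (F₀.inv_mem hcm) (hY i j)) ?_
    rw [Matrix.one_apply]
    split_ifs
    exacts [F₀.one_mem, F₀.zero_mem]
  have hEP : E * P = P * M := by
    rw [hM, Matrix.mul_sub, Matrix.mul_smul, ← hPY, smul_smul, inv_mul_cancel₀ hc, one_smul,
      Matrix.add_mul, Matrix.one_mul, Matrix.mul_one, add_sub_cancel_left]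
  have hPinv : P * P⁻¹ = 1 := Matrix.mul_nonsing_inv P (by rw [hP]; exact isUnit_one)
  obtain ⟨f, hf⟩ := exists_minor (P.submatrix Sum.inl id) (P⁻¹.submatrix id Sum.inl) (by
    ext a a'
    have := congrFun (congrFun hPinv (Sum.inl a)) (Sum.inl a')
    simpa [Matrix.mul_apply, Matrix.one_apply] using this)
  have hf' : (P.submatrix Sum.inl f).det ≠ 0 := hf
  have hdet := det_block D P M hP hEP f
  have hH : (Matrix.fromCols ((1 : Matrix (ι ⊕ ι) (ι ⊕ ι) F).submatrix id f)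
      (M.submatrix id f)).det ∈ F₀ := det_mem F₀ _ (by
    intro s t
    rcases t with i | i
    · rw [Matrix.fromCols_apply_inl, Matrix.submatrix_apply, Matrix.one_apply]
      split_ifs
      exacts [F₀.one_mem, F₀.zero_mem]
    · rw [Matrix.fromCols_apply_inr]
      exact hMrat _ _)
  obtain ⟨r, hr⟩ := hsq _ hH
  refine ⟨r * ((P.submatrix Sum.inl f).det)⁻¹, ?_⟩
  rw [hdet] at hr
  field_simp
  rw [hr]
  ring

/-- the witness: an element of order 3 that is not conjugate into the subfield group -/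
theorem nec {F : Type*} [Field F] [Fintype F] [CharP F 3] (F₀ : Subfield F)
    (hsq : ∀ μ ∈ F₀, IsSquare μ) (m : ℕ) (hm : 0 < m) :
    ∃ x : Matrix.SpecialLinearGroup (Fin (m + m)) F,
      ((x ^ 3 : Matrix.SpecialLinearGroup (Fin (m + m)) F) : Matrix (Fin (m + m)) (Fin (m + m)) F)
        = (1 : F) • (1 : Matrix (Fin (m + m)) (Fin (m + m)) F) ∧
      (∀ z : F, (x : Matrix (Fin (m + m)) (Fin (m + m)) F) ≠
        z • (1 : Matrix (Fin (m + m)) (Fin (m + m)) F)) ∧
      ¬ ConjH F₀ (x : Matrix (Fin (m + m)) (Fin (m + m)) F) := by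
  classical
  have h2 : (2 : F) ≠ 0 := by
    intro h
    have h3 : ((3 : ℕ) : F) = 0 := CharP.cast_eq_zero F 3
    have : (1 : F) = 0 := by
      have h4 : (1 : F) = ((3 : ℕ) : F) - 2 := by push_cast; ring
      rw [h4, h3, h]; ring
    exact one_ne_zero this
  have hchar : ringChar F ≠ 2 := by
    intro h
    have : CharP F 2 := by rw [← h]; exact ringChar.charP F
    exact h2 (by exact_mod_cast CharP.cast_eq_zero F 2)
  obtain ⟨ν, hν⟩ := FiniteField.exists_nonsquare hchar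
  have : Nonempty (Fin m) := ⟨⟨0, hm⟩⟩
  let i₀ : Fin m := ⟨0, hm⟩
  let D : Matrix (Fin m) (Fin m) F := Matrix.diagonal (fun i => if i = i₀ then ν else 1)
  have hD : D.det = ν := by
    rw [Matrix.det_diagonal, Finset.prod_ite_eq' Finset.univ i₀ (fun _ => ν)]
    simp
  have hν0 : ν ≠ 0 := by
    rintro rfl
    exact hν ⟨0, by simp⟩
  let X₀ : Matrix (Fin m ⊕ Fin m) (Fin m ⊕ Fin m) F := 1 + Matrix.fromBlocks 0 0 D 0
  obtain ⟨hdet, hpow⟩ := witness_props (F := F) D
  let e : Fin m ⊕ Fin m ≃ Fin (m + m) := finSumFinEquiv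
  let X : Matrix (Fin (m + m)) (Fin (m + m)) F := Matrix.reindex e e X₀
  have hXdet : X.det = 1 := by
    rw [Matrix.det_reindex_self]
    exact hdet
  let x : Matrix.SpecialLinearGroup (Fin (m + m)) F := ⟨X, hXdet⟩
  have hxX : (x : Matrix (Fin (m + m)) (Fin (m + m)) F) = X := rfl
  refine ⟨x, ?_, ?_, ?_⟩
  · rw [Matrix.SpecialLinearGroup.coe_pow, one_smul, hxX]
    have : X ^ 3 = Matrix.reindex e e (X₀ ^ 3) := by
      have h := map_pow (Matrix.reindexAlgEquiv F F e) X₀ 3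
      exact h.symm
    rw [this, hpow]
    exact map_one (Matrix.reindexAlgEquiv F F e)
  · intro z hz
    rw [hxX] at hz
    have h1 := congrFun (congrFun hz (e (Sum.inr i₀))) (e (Sum.inl i₀))
    have h3 : X (e (Sum.inr i₀)) (e (Sum.inl i₀)) = ν := by
      simp [X, X₀, D, Matrix.reindex_apply, Matrix.submatrix_apply]
    have h4 : (z • (1 : Matrix (Fin (m + m)) (Fin (m + m)) F)) (e (Sum.inr i₀)) (e (Sum.inl i₀))
        = 0 := by
      rw [Matrix.smul_apply, Matrix.one_apply_ne (by simp), smul_zero]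
    exact hν0 (by rw [← h3]; exact h1.trans h4)
  · intro hc
    rw [hxX] at hc
    have h1 : ConjH F₀ X₀ := conjH_of_reindex F₀ e X₀ hc
    have h5 := isSquare_det_of_conjH F₀ h2 hsq D h1
    rw [hD] at h5
    exact hν h5

end Cfsg.Agent.Lib.Helper78.SF3
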