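import Cfsg.Agent.Lib.Helper78.SF3.Defs
import Cfsg.Agent.Lib.Helper9.Inv.SQ

/- helper78 farm SF3 (S5966), piece NT1 (proved by helper92).  Euler criterion:
a nonsquare of the subfield stays a nonsquare in an extension of odd degree.
-/
set_option autoImplicit false

namespace Cfsg.Agent.Lib.Helper78.SF3

theorem NT1_pow {F : Type*} [Field F] (x : F) (m : ℕ) (hx : x ^ m = -1) (k : ℕ) :
    x ^ ((2 * m + 1) ^ k / 2) = (-1) ^ k := by
  induction k with
  | zero => simp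
  | succ k ih =>
    have hodd : Odd ((2 * m + 1) ^ k) := Odd.pow ⟨m, rfl⟩
    obtain ⟨t, ht⟩ := hodd
    have e0 : (2 * m + 1) ^ k / 2 = t := by rw [ht]; omega
    have e1 : (2 * m + 1) ^ (k + 1) / 2 = t * (2 * m + 1) + m := by
      rw [pow_succ, ht]
      have : (2 * t + 1) * (2 * m + 1) = 2 * (t * (2 * m + 1) + m) + 1 := by ring
      rw [this]; omega
    rw [e0] at ih
    rw [e1, pow_add, pow_mul, ih, hx]
    have e2 : (((-1 : F)) ^ k) ^ (2 * m + 1) = (-1) ^ k := by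
      have e3 : (((-1 : F)) ^ k) ^ 2 = 1 := by
        rw [← pow_mul, mul_comm k 2, pow_mul, neg_one_sq, one_pow]
      rw [pow_succ, pow_mul, e3, one_pow, one_mul]
    rw [e2, pow_succ]

/-- [NT1] odd degree: every non-zero element is a square times a non-zero element of the subfield -/
theorem nt1 {F : Type*} [Field F] [Fintype F] [CharP F 3] (F₀ : Subfield F) (k q₀ : ℕ) (hk : Odd k)
    (hF₀ : Nat.card ↥F₀ = q₀) (hq : Fintype.card F = q₀ ^ k) :
    ∀ a : F, a ≠ 0 → ∃ l μ : F, μ ∈ F₀ ∧ μ ≠ 0 ∧ a = l ^ 2 * μ := by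
  classical
  intro a ha
  have hchar : ringChar F ≠ 2 := by rw [ringChar.eq F 3]; norm_num
  have h2 : (2 : F) ≠ 0 := by
    intro h
    have h3 : ((2 : ℕ) : F) = 0 := by exact_mod_cast h
    rw [CharP.cast_eq_zero_iff F 3] at h3
    omega
  by_cases hsq : IsSquare a
  · obtain ⟨l, hl⟩ := hsq
    exact ⟨l, 1, F₀.one_mem, one_ne_zero, by rw [hl]; ring⟩
  letI : Fintype ↥F₀ := Fintype.ofFinite _
  haveI : CharP ↥F₀ 3 := inferInstance
  have hchar0 : ringChar ↥F₀ ≠ 2 := by rw [ringChar.eq ↥F₀ 3]; norm_num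
  obtain ⟨μ, hμ⟩ := FiniteField.exists_nonsquare hchar0
  have hμ0 : μ ≠ 0 := by
    intro h; exact hμ (by rw [h]; exact IsSquare.zero)
  have hcard : Fintype.card ↥F₀ = q₀ := by rw [← Nat.card_eq_fintype_card, hF₀]
  have hodd0 : Odd q₀ := by
    rw [← hcard]; exact Nat.odd_iff.mpr (FiniteField.odd_card_of_char_ne_two hchar0)
  obtain ⟨m, hm⟩ := hodd0
  have h1 : μ ^ (Fintype.card ↥F₀ / 2) = -1 := by
    rcases FiniteField.pow_dichotomy hchar0 hμ0 with h | h
    · exact absurd ((FiniteField.isSquare_iff hchar0 hμ0).mpr h) hμ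
    · exact h
  have e0 : Fintype.card ↥F₀ / 2 = m := by rw [hcard, hm]; omega
  rw [e0] at h1
  have h3 : (μ : F) ^ m = -1 := by
    have := congrArg Subtype.val h1
    simpa using this
  have h4 := NT1_pow (μ : F) m h3 k
  rw [← hm, ← hq, hk.neg_one_pow] at h4
  have hμF0 : (μ : F) ≠ 0 := by
    intro h; exact hμ0 (Subtype.ext h)
  have hμns : ¬ IsSquare (μ : F) := by
    intro h
    rw [FiniteField.isSquare_iff hchar hμF0, h4] at h
    have h5 : (2 : F) = 0 := by linear_combination -h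
    exact h2 h5
  obtain ⟨b, hb⟩ := Cfsg.Agent.Lib.Helper9.Inv.exists_sq_mul_eq h2 (z := (μ : F)) (D := a)
    (fun s hs => hμns ⟨s, hs.symm⟩) (fun s hs => hsq ⟨s, hs.symm⟩)
  exact ⟨b, μ, μ.2, hμF0, by rw [← hb]; ring⟩

end Cfsg.Agent.Lib.Helper78.SF3
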