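import Cfsg.Agent.Lib.Helper78.SF3.Defs

/- helper78 farm SF3 (S5966), piece NT2 (proved by helper92).  Euler criterion.
-/
set_option autoImplicit false

namespace Cfsg.Agent.Lib.Helper78.SF3

/-- [NT2] degree 2: every element of the subfield is a square -/
theorem nt2 {F : Type*} [Field F] [Fintype F] [CharP F 3] (F₀ : Subfield F) (q₀ : ℕ)
    (hF₀ : Nat.card ↥F₀ = q₀) (hq : Fintype.card F = q₀ ^ 2) : ∀ μ ∈ F₀, IsSquare μ := by
  classical
  intro μ hμ
  have hchar : ringChar F ≠ 2 := by rw [ringChar.eq F 3]; norm_num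
  by_cases h0 : μ = 0
  · rw [h0]; exact IsSquare.zero
  rw [FiniteField.isSquare_iff hchar h0]
  have hodd : Odd (q₀ ^ 2) := by
    rw [← hq]; exact Nat.odd_iff.mpr (FiniteField.odd_card_of_char_ne_two hchar)
  have hodd0 : Odd q₀ := by
    rcases Nat.even_or_odd q₀ with he | ho
    · exact absurd (he.pow_of_ne_zero (n := 2) (by norm_num)) (by simpa using hodd)
    · exact ho
  obtain ⟨m, hm⟩ := hodd0
  letI : Fintype ↥F₀ := Fintype.ofFinite _
  have h1 : (⟨μ, hμ⟩ : ↥F₀) ^ (Fintype.card ↥F₀ - 1) = 1 :=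
    FiniteField.pow_card_sub_one_eq_one _ (by
      intro h; exact h0 (congrArg Subtype.val h))
  rw [← Nat.card_eq_fintype_card, hF₀] at h1
  have h2 : μ ^ (q₀ - 1) = 1 := by
    have := congrArg Subtype.val h1
    simpa using this
  have h3 : Fintype.card F / 2 = (q₀ - 1) * (m + 1) := by
    rw [hq, hm]
    have e1 : (2 * m + 1) ^ 2 = 2 * (2 * m * (m + 1)) + 1 := by ring
    have e2 : 2 * m + 1 - 1 = 2 * m := by omega
    rw [e1, e2]; omega
  rw [h3, pow_mul, h2, one_pow]

end Cfsg.Agent.Lib.Helper78.SF3
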