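import Cfsg.Agent.Lib.Helper78.SF3.Defs

/- helper78 farm SF3 (S5966), piece U3 (helper3). -/
set_option autoImplicit false

namespace Cfsg.Agent.Lib.Helper78.SF3

/-- [U3] scaling one chain by `l` and its first vector by `μ` -/
theorem exists_scaling {F : Type*} [Field F] (F₀ : Subfield F) {ι : Type} [Fintype ι] (d : ι → ℕ)
    (k₀ : ι) (hk₀ : 0 < d k₀) (l μ : F) (hl : l ≠ 0) (hμ : μ ∈ F₀) (hμ0 : μ ≠ 0) :
    ∃ t : (Σ k : ι, Fin (d k)) → F, (∀ s, t s ≠ 0) ∧ (∏ s, t s = l ^ (d k₀) * μ) ∧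
      ∀ (k : ι) (i j : Fin (d k)), t ⟨k, i⟩ * (t ⟨k, j⟩)⁻¹ ∈ F₀ := by
  classical
  let s₀ : (Σ k : ι, Fin (d k)) := ⟨k₀, ⟨0, hk₀⟩⟩
  refine ⟨fun s => (if s.1 = k₀ then l else 1) * (if s = s₀ then μ else 1), ?_, ?_, ?_⟩
  · intro s
    apply mul_ne_zero
    · split_ifs
      · exact hl
      · exact one_ne_zero
    · split_ifs
      · exact hμ0
      · exact one_ne_zero
  · rw [Finset.prod_mul_distrib, Fintype.prod_sigma]
    congr 1
    · rw [Finset.prod_eq_single k₀]
      · simp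
      · intro b _ hb
        simp [hb]
      · intro h
        exact absurd (Finset.mem_univ _) h
    · rw [Finset.prod_ite_eq']
      rw [if_pos (Finset.mem_univ _)]
  · intro k i j
    have hne : (if k = k₀ then l else 1) ≠ 0 := by
      split_ifs
      · exact hl
      · exact one_ne_zero
    have : (if k = k₀ then l else 1) * (if (⟨k, i⟩ : Σ k : ι, Fin (d k)) = s₀ then μ else 1) *
        ((if k = k₀ then l else 1) * (if (⟨k, j⟩ : Σ k : ι, Fin (d k)) = s₀ then μ else 1))⁻¹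
        = (if (⟨k, i⟩ : Σ k : ι, Fin (d k)) = s₀ then μ else 1) *
          (if (⟨k, j⟩ : Σ k : ι, Fin (d k)) = s₀ then μ else 1)⁻¹ := by
      rw [mul_inv]
      field_simp
    simp only
    rw [this]
    apply F₀.mul_mem
    · split_ifs
      · exact hμ
      · exact F₀.one_mem
    · apply F₀.inv_mem
      split_ifs
      · exact hμ
      · exact F₀.one_mem

end Cfsg.Agent.Lib.Helper78.SF3
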