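import Cfsg.Agent.Lib.Helper78.SF3.CH
import Cfsg.Agent.Lib.Helper78.SF3.U3
import Cfsg.Agent.Lib.Helper67.Elus.J1
import Cfsg.Agent.Lib.Helper67.Elus.J1b
import Cfsg.Agent.Lib.Helper67.Elus.J1c
import Cfsg.Agent.Lib.Helper67.Elus.J7a
import Cfsg.Agent.Lib.Helper67.Elus.Bridge

set_option autoImplicit false

namespace Cfsg.Agent.Lib.Helper78.SF3

open Cfsg.Agent.Lib.Helper67.Elus

/-- sufficiency: every element with scalar cube is conjugate into the subfield group -/
theorem suf {F : Type*} [Field F] [Fintype F] [CharP F 3] (F₀ : Subfield F) {n : ℕ} (hn : 0 < n)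
    (hcase : Odd n ∨ ∀ a : F, a ≠ 0 → ∃ l μ : F, μ ∈ F₀ ∧ μ ≠ 0 ∧ a = l ^ 2 * μ)
    (x : Matrix.SpecialLinearGroup (Fin n) F) (z : F)
    (hx : ((x ^ 3 : Matrix.SpecialLinearGroup (Fin n) F) : Matrix (Fin n) (Fin n) F)
      = z • (1 : Matrix (Fin n) (Fin n) F)) :
    ConjH F₀ (x : Matrix (Fin n) (Fin n) F) := by
  classical
  have : Fact (Nat.Prime 3) := ⟨Nat.prime_three⟩
  set X : Matrix (Fin n) (Fin n) F := (x : Matrix (Fin n) (Fin n) F) with hX
  have hX3 : X ^ 3 = z • (1 : Matrix (Fin n) (Fin n) F) := by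
    rw [← hx, Matrix.SpecialLinearGroup.coe_pow]
  have hz : z ≠ 0 := by
    rintro rfl
    have h1 : (X ^ 3).det = 1 := by rw [Matrix.det_pow, hX, x.2, one_pow]
    have : Nonempty (Fin n) := ⟨⟨0, hn⟩⟩
    rw [hX3, zero_smul, Matrix.det_zero] at h1
    exact zero_ne_one h1
  have hT : (Matrix.toLin' X) ^ 3 = z • (1 : Module.End F (Fin n → F)) := by
    rw [← toLin'_pow_B, hX3, toLin'_smul_one_B]
  obtain ⟨w, hw, hN⟩ := exists_unip (p := 3) hT hz
  obtain ⟨μ, hμpos, hJ⟩ := exists_jtype (w⁻¹ • Matrix.toLin' X - 1) ⟨3, hN⟩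
  have hle := jtype_le hJ hN
  have hsum := jtype_sum hJ
  obtain ⟨ι, _, d, b, hd, hb⟩ := hJ
  have hdpos : ∀ k, 0 < d k := fun k =>
    hμpos _ (by rw [← hd]; exact Multiset.mem_map_of_mem d (Finset.mem_univ_val k))
  have hdle : ∀ k, d k ≤ 3 := fun k =>
    hle _ (by rw [← hd]; exact Multiset.mem_map_of_mem d (Finset.mem_univ_val k))
  have hsum' : ∑ k, d k = n := by
    have : (∑ k, d k) = μ.sum := by rw [← hd]; rfl
    rw [this, hsum]
    simp
  have hne : Nonempty ι := by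
    by_contra hcon
    rw [not_nonempty_iff] at hcon
    rw [Finset.univ_eq_empty, Finset.sum_empty] at hsum'
    omega
  refine conjH_of_chain F₀ X w hw d b hb ?_
  intro a ha
  by_cases hall : ∀ k, d k = 2
  · -- all chains of length two
    have hev : ¬ Odd n := by
      rw [← hsum', Finset.sum_congr rfl (fun k _ => hall k), Finset.sum_const, smul_eq_mul,
        Nat.not_odd_iff_even]
      exact even_two.mul_left _
    obtain ⟨l, ν, hν, hν0, hal⟩ := (hcase.resolve_left hev) a ha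
    obtain ⟨k₀⟩ := hne
    have hl : l ≠ 0 := by
      rintro rfl
      apply ha
      rw [hal]
      ring
    obtain ⟨t, h1, h2, h3⟩ := exists_scaling F₀ d k₀ (hdpos k₀) l ν hl hν hν0
    exact ⟨t, h1, by rw [h2, hall k₀, hal], h3⟩
  · push Not at hall
    obtain ⟨k₀, hk₀⟩ := hall
    have h13 : d k₀ = 1 ∨ d k₀ = 3 := by
      have := hdpos k₀
      have := hdle k₀
      omega
    obtain ⟨l, hl⟩ : ∃ l : F, l ^ (d k₀) = a := by
      rcases h13 with h | h
      · exact ⟨a, by rw [h, pow_one]⟩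
      · rw [h]
        exact (Finite.injective_iff_surjective.1 (frobenius_inj F 3)) a
    have hl0 : l ≠ 0 := by
      rintro rfl
      apply ha
      rw [← hl, zero_pow (hdpos k₀).ne']
    obtain ⟨t, h1, h2, h3⟩ := exists_scaling F₀ d k₀ (hdpos k₀) l 1 hl0 F₀.one_mem one_ne_zero
    exact ⟨t, h1, by rw [h2, hl, mul_one], h3⟩

end Cfsg.Agent.Lib.Helper78.SF3
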