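import Cfsg.Agent.Lib.Helper78.SF3.Defs

set_option autoImplicit false

namespace Cfsg.Agent.Lib.Helper78.SF3

/-- [T] transfer along a reindexing -/
theorem conjH_of_reindex {F : Type*} [Field F] {κ κ' : Type*} [Fintype κ] [DecidableEq κ]
    [Fintype κ'] [DecidableEq κ'] (F₀ : Subfield F) (e : κ ≃ κ') (X : Matrix κ κ F)
    (h : ConjH F₀ (Matrix.reindex e e X)) : ConjH F₀ X := by
  obtain ⟨P, Y, c, hP, hc, hY, hPY⟩ := h
  refine ⟨P.submatrix e e, Y.submatrix e e, c, ?_, hc, fun i j => hY _ _, ?_⟩
  · rw [Matrix.det_submatrix_equiv_self, hP]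
  · have h1 := congrArg (fun A : Matrix κ' κ' F => A.submatrix e e) hPY
    have h2 : (P * Y).submatrix e e = P.submatrix e e * Y.submatrix e e :=
      (Matrix.submatrix_mul_equiv P Y e e e).symm
    have h3 : (c • ((Matrix.reindex e e) X * P)).submatrix e e = c • (X * P.submatrix e e) := by
      have h4 : ((Matrix.reindex e e) X * P).submatrix e e
          = ((Matrix.reindex e e) X).submatrix e e * P.submatrix e e :=
        (Matrix.submatrix_mul_equiv _ P e e e).symm
      have h5 : ((Matrix.reindex e e) X).submatrix e e = X := by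
        ext i j
        simp
      rw [h5] at h4
      rw [← h4]
      rfl
    rw [← h3, ← h2]
    exact h1

end Cfsg.Agent.Lib.Helper78.SF3
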